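import Cfsg.Agent.Lib.Hall.Basic

set_option autoImplicit false
set_option linter.unusedSectionVars false

namespace Cfsg.Agent.Lib.HallSym

open Cfsg Equiv Equiv.Perm

variable {α : Type*} [Fintype α] [DecidableEq α]

def Tr (Q : Subgroup (Perm α)) (S : Finset α) : Prop :=
  ∀ a ∈ S, ∀ b ∈ S, ∃ g ∈ Q, g a = b ∧ ∀ x ∉ S, g x = x

def Tr2 (Q : Subgroup (Perm α)) (S : Finset α) : Prop :=
  ∀ a ∈ S, ∀ b ∈ S, ∃ g ∈ Q, g a = b ∧ g b = a ∧ ∀ x ∉ S, g x = x

def Cy (Q : Subgroup (Perm α)) (S : Finset α) : Prop :=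
  ∃ c ∈ Q, c.IsCycleOn S ∧ ∀ x ∉ S, c x = x

def Blk (H : Subgroup (Perm α)) (S : Finset α) : Prop :=
  ∀ g ∈ H, ∀ x ∈ S, g x ∈ S → ∀ y ∈ S, g y ∈ S

def Inv (H : Subgroup (Perm α)) (D : Finset α) : Prop := ∀ g ∈ H, ∀ x ∈ D, g x ∈ D

theorem mem_img {S : Finset α} {g : Perm α} {x : α} : x ∈ S.image g ↔ g⁻¹ x ∈ S := by
  simp only [Finset.mem_image]
  constructor
  · rintro ⟨y, hy, rfl⟩; simpa using hy
  · intro h; exact ⟨_, h, by simp⟩

theorem card_img (S : Finset α) (g : Perm α) : (S.image g).card = S.card :=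
  Finset.card_image_of_injective _ g.injective

theorem Tr2.tr {Q : Subgroup (Perm α)} {S : Finset α} (h : Tr2 Q S) : Tr Q S := fun a ha b hb => by
  obtain ⟨g, hg, h1, -, h2⟩ := h a ha b hb
  exact ⟨g, hg, h1, h2⟩

theorem pow_fix {c : Perm α} {x : α} (h : c x = x) (k : ℕ) : (c ^ k) x = x :=
  Equiv.Perm.pow_apply_eq_self_of_apply_eq_self h k

theorem Cy.tr {Q : Subgroup (Perm α)} {S : Finset α} (h : Cy Q S) : Tr Q S := fun a ha b hb => by
  obtain ⟨c, hc, h1, h2⟩ := h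
  obtain ⟨k, -, hk⟩ := h1.exists_pow_eq ha hb
  exact ⟨c ^ k, pow_mem hc k, hk, fun x hx => pow_fix (h2 x hx) k⟩

theorem Tr.mono {Q H : Subgroup (Perm α)} {S : Finset α} (h : Tr Q S) (hle : Q ≤ H) : Tr H S :=
  fun a ha b hb => by
    obtain ⟨g, hg, h1⟩ := h a ha b hb
    exact ⟨g, hle hg, h1⟩

theorem Tr2.mono {Q H : Subgroup (Perm α)} {S : Finset α} (h : Tr2 Q S) (hle : Q ≤ H) : Tr2 H S :=
  fun a ha b hb => by
    obtain ⟨g, hg, h1⟩ := h a ha b hb
    exact ⟨g, hle hg, h1⟩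

theorem Cy.mono {Q H : Subgroup (Perm α)} {S : Finset α} (h : Cy Q S) (hle : Q ≤ H) : Cy H S := by
  obtain ⟨c, hc, h1⟩ := h
  exact ⟨c, hle hc, h1⟩

theorem Inv.mono {Q H : Subgroup (Perm α)} {S : Finset α} (h : Inv H S) (hle : Q ≤ H) : Inv Q S :=
  fun g hg => h g (hle hg)

theorem Blk.mono {Q H : Subgroup (Perm α)} {S : Finset α} (h : Blk H S) (hle : Q ≤ H) : Blk Q S :=
  fun g hg => h g (hle hg)

theorem Inv.not_mem {H : Subgroup (Perm α)} {D : Finset α} (h : Inv H D) {g : Perm α} (hg : g ∈ H)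
    {x : α} (hx : x ∉ D) : g x ∉ D := fun h1 => hx (by simpa using h _ (inv_mem hg) _ h1)

theorem conj_fix {S : Finset α} {g l : Perm α} (h : ∀ x ∉ S, g x = x) :
    ∀ x ∉ S.image l, (l * g * l⁻¹) x = x := fun x hx => by
  rw [mem_img] at hx
  rw [Perm.mul_apply, Perm.mul_apply, h _ hx]; simp

theorem Tr.conj {R Q : Subgroup (Perm α)} {S : Finset α} (h : Tr R S) {l : Perm α}
    (hl : ∀ r ∈ R, l * r * l⁻¹ ∈ Q) : Tr Q (S.image l) := fun a ha b hb => by
  obtain ⟨g, hg, h1, h2⟩ := h _ (mem_img.1 ha) _ (mem_img.1 hb)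
  exact ⟨_, hl g hg, by rw [Perm.mul_apply, Perm.mul_apply, h1]; simp, conj_fix h2⟩

theorem Tr2.conj {R Q : Subgroup (Perm α)} {S : Finset α} (h : Tr2 R S) {l : Perm α}
    (hl : ∀ r ∈ R, l * r * l⁻¹ ∈ Q) : Tr2 Q (S.image l) := fun a ha b hb => by
  obtain ⟨g, hg, h1, h1', h2⟩ := h _ (mem_img.1 ha) _ (mem_img.1 hb)
  exact ⟨_, hl g hg, by rw [Perm.mul_apply, Perm.mul_apply, h1]; simp,
    by rw [Perm.mul_apply, Perm.mul_apply, h1']; simp, conj_fix h2⟩

theorem Cy.conj {R Q : Subgroup (Perm α)} {S : Finset α} (h : Cy R S) {l : Perm α}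
    (hl : ∀ r ∈ R, l * r * l⁻¹ ∈ Q) : Cy Q (S.image l) := by
  obtain ⟨c, hc, h1, h2⟩ := h
  exact ⟨_, hl c hc, by rw [Finset.coe_image]; exact h1.conj, conj_fix h2⟩

theorem self_conj {Q : Subgroup (Perm α)} {l : Perm α} (hl : l ∈ Q) :
    ∀ r ∈ Q, l * r * l⁻¹ ∈ Q := fun _ hr => mul_mem (mul_mem hl hr) (inv_mem hl)

theorem img_sub {S D : Finset α} (hS : S ⊆ D) {l : Perm α} (hl : ∀ x ∉ D, l x = x) :
    S.image l ⊆ D := fun x hx => by
  by_contra h
  rw [mem_img] at hx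
  have : l⁻¹ x = x := by rw [Perm.inv_eq_iff_eq, hl x h]
  exact h (hS (this ▸ hx))

/-- A Sylow subgroup of the alternating group, inside the symmetric group. -/
structure Syl (p : ℕ) (Q : Subgroup (Perm α)) : Prop where
  pg : IsPGroup p Q
  le : Q ≤ alternatingGroup α
  idx : ¬ p ∣ Q.relIndex (alternatingGroup α)

theorem Syl.conj_into {p : ℕ} [Fact p.Prime] {Q R : Subgroup (Perm α)} (hQ : Syl p Q)
    {D : Finset α} (hD : Inv Q D) (hR : IsPGroup p R) (hRA : R ≤ alternatingGroup α)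
    (hRD : ∀ g ∈ R, ∀ x ∉ D, g x = x) :
    ∃ l : Perm α, (∀ x ∉ D, l x = x) ∧ ∀ r ∈ R, l * r * l⁻¹ ∈ Q := by
  let N : Subgroup (Perm α) :=
    { carrier := {g | g ∈ alternatingGroup α ∧ ∃ q ∈ Q, ∀ x ∉ D, g x = q x}
      one_mem' := ⟨one_mem _, 1, one_mem _, fun _ _ => rfl⟩
      mul_mem' := by
        rintro g g' ⟨hg, q, hq, h⟩ ⟨hg', q', hq', h'⟩
        refine ⟨mul_mem hg hg', q * q', mul_mem hq hq', fun x hx => ?_⟩
        rw [Perm.mul_apply, Perm.mul_apply, h' x hx, h _ (hD.not_mem hq' hx)]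
      inv_mem' := by
        rintro g ⟨hg, q, hq, h⟩
        refine ⟨inv_mem hg, q⁻¹, inv_mem hq, fun x hx => ?_⟩
        rw [Perm.inv_eq_iff_eq, h _ (hD.not_mem (inv_mem hq) hx)]
        simp }
  have hQN : Q ≤ N := fun q hq => ⟨hQ.le hq, q, hq, fun _ _ => rfl⟩
  have hNA : N ≤ alternatingGroup α := fun g hg => hg.1
  have hi : ¬ p ∣ Q.relIndex N := fun h => hQ.idx (by
    rw [← Subgroup.relIndex_mul_relIndex _ _ _ hQN hNA]; exact h.mul_right _)
  obtain ⟨g, ⟨-, q, hq, hg⟩, h⟩ := conj_into_sylow hQ.pg hQN hi hR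
    (fun r hr => ⟨hRA hr, 1, one_mem _, fun x hx => hRD r hr x hx⟩)
  refine ⟨q⁻¹ * g, fun x hx => by rw [Perm.mul_apply, hg x hx]; simp, fun r hr => ?_⟩
  have := mul_mem (mul_mem (inv_mem hq) (h r hr)) hq
  simpa [mul_assoc] using this

theorem zpowers_pgroup {G : Type*} [Group G] {p : ℕ} {c : G} (h : c ^ p = 1) :
    IsPGroup p (Subgroup.zpowers c) := by
  rintro ⟨x, k, rfl⟩
  refine ⟨1, Subtype.ext ?_⟩
  change (c ^ k) ^ p ^ 1 = 1
  rw [pow_one, ← _root_.zpow_natCast, ← _root_.zpow_mul, mul_comm, _root_.zpow_mul,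
    _root_.zpow_natCast, h, _root_.one_zpow]

theorem mem_alt_of_pow_odd {c : Perm α} {p : ℕ} (hp : Odd p) (h : c ^ p = 1) :
    c ∈ alternatingGroup α := by
  rw [Perm.mem_alternatingGroup]
  have := congrArg Perm.sign h
  rw [map_pow, map_one] at this
  rcases Int.units_eq_one_or (Perm.sign c) with h1 | h1
  · exact h1
  · rw [h1, hp.neg_one_pow] at this
    exact absurd this (by decide)

theorem Syl.exists_cy {p : ℕ} [hp : Fact p.Prime] (hp2 : p ≠ 2) {Q : Subgroup (Perm α)}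
    (hQ : Syl p Q) {D : Finset α} (hD : Inv Q D) (h : p ≤ D.card) :
    ∃ S ⊆ D, S.card = p ∧ Cy Q S := by
  obtain ⟨S, hS, hc⟩ := Finset.exists_subset_card_eq h
  obtain ⟨c, h1, h2⟩ := Finset.exists_cycleOn S
  have h3 : ∀ x ∉ S, c x = x := fun x hx => by
    by_contra h; exact hx (h2 (Perm.mem_support.2 h))
  have h4 : c ^ p = 1 := by
    ext x
    by_cases hx : x ∈ S
    · rw [← hc]; exact h1.pow_card_apply hx
    · exact pow_fix (h3 x hx) p
  obtain ⟨l, hl, hl'⟩ := hQ.conj_into hD (zpowers_pgroup h4)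
    (Subgroup.zpowers_le.2 (mem_alt_of_pow_odd (hp.out.odd_of_ne_two hp2) h4)) (by
      rintro _ ⟨k, rfl⟩ x hx
      exact Perm.zpow_apply_eq_self_of_apply_eq_self (h3 x fun h => hx (hS h)) k)
  exact ⟨S.image l, img_sub hS hl, by rw [card_img, hc],
    Cy.conj ⟨c, Subgroup.mem_zpowers c, h1, h3⟩ hl'⟩

def V4 : Subgroup (Perm (Fin 4)) where
  carrier := {g | g * g = 1 ∧ Perm.sign g = 1}
  one_mem' := by simp
  mul_mem' := by
    intro a b
    simp only [Set.mem_ofPred_eq]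
    revert a b
    decide +kernel
  inv_mem' := by
    intro a
    simp only [Set.mem_ofPred_eq]
    revert a
    decide +kernel

theorem V4_tr : ∀ i j : Fin 4, ∃ g : Perm (Fin 4), (g * g = 1 ∧ Perm.sign g = 1) ∧ g i = j ∧ g j = i := by
  decide +kernel

theorem Syl.exists_tr2 {Q : Subgroup (Perm α)} (hQ : Syl 2 Q) {D : Finset α} (hD : Inv Q D)
    (h : 4 ≤ D.card) : ∃ S ⊆ D, S.card = 4 ∧ Tr2 Q S := by
  classical
  obtain ⟨S, hS, hc⟩ := Finset.exists_subset_card_eq h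
  let e : Fin 4 ≃ {x // x ∈ S} := (Finset.equivFinOfCardEq hc).symm
  let φ : Perm (Fin 4) →* Perm α := Perm.extendDomainHom e
  have hφ1 : ∀ g i, φ g (e i) = e (g i) := fun g i => Perm.extendDomain_apply_image g e i
  have hφ2 : ∀ g, ∀ x ∉ S, φ g x = x := fun g x hx => Perm.extendDomain_apply_not_subtype g e hx
  have hR : IsPGroup 2 (V4.map φ) := IsPGroup.map (fun g => ⟨1, Subtype.ext (by
    have := g.2.1
    simpa [pow_two] using this)⟩) φ
  obtain ⟨l, hl, hl'⟩ := hQ.conj_into hD hR (by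
      rintro _ ⟨g, hg, rfl⟩
      rw [Perm.mem_alternatingGroup]
      exact (Perm.sign_extendDomain g e).trans hg.2) (by
      rintro _ ⟨g, hg, rfl⟩ x hx
      exact hφ2 g x fun h => hx (hS h))
  refine ⟨S.image l, img_sub hS hl, by rw [card_img, hc], Tr2.conj (fun a ha b hb => ?_) hl'⟩
  obtain ⟨g, hg, h1, h2⟩ := V4_tr (e.symm ⟨a, ha⟩) (e.symm ⟨b, hb⟩)
  refine ⟨φ g, ⟨g, hg, rfl⟩, ?_, ?_, hφ2 g⟩
  · have := hφ1 g (e.symm ⟨a, ha⟩)
    rw [h1] at this
    simpa using this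
  · have := hφ1 g (e.symm ⟨b, hb⟩)
    rw [h2] at this
    simpa using this

open Classical in
/-- The points not covered by an `s`-set with property `P`. -/
noncomputable def unc (s : ℕ) (P : Finset α → Prop) : Finset α :=
  Finset.univ.filter fun x => ¬ ∃ S : Finset α, S.card = s ∧ P S ∧ x ∈ S

theorem mem_unc {s : ℕ} {P : Finset α → Prop} {x : α} :
    x ∈ unc s P ↔ ¬ ∃ S : Finset α, S.card = s ∧ P S ∧ x ∈ S := by
  simp [unc]

theorem card_unc_lt {H : Subgroup (Perm α)} {P : Finset α → Prop} {s : ℕ} (hs : 0 < s)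
    (hconj : ∀ S, P S → ∀ g ∈ H, P (S.image g))
    (hex : ∀ D, Inv H D → s ≤ D.card → ∃ S ⊆ D, S.card = s ∧ P S) : (unc s P).card < s := by
  by_contra h
  obtain ⟨S, hS, hc, hP⟩ := hex (unc s P) (fun g hg x hx => by
    rw [mem_unc] at hx ⊢
    rintro ⟨S, hc, hP, hxS⟩
    exact hx ⟨S.image ⇑g⁻¹, by rw [card_img, hc], hconj S hP _ (inv_mem hg),
      mem_img.2 (by simpa using hxS)⟩) (by omega)
  obtain ⟨x, hx⟩ := Finset.card_pos.1 (hc ▸ hs : 0 < S.card)
  exact mem_unc.1 (hS hx) ⟨S, hc, hP, hx⟩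

/-- no proper overlaps -/
def NoOv (s : ℕ) (P : Finset α → Prop) : Prop :=
  ∀ S S' : Finset α, S.card = s → S'.card = s → P S → P S' → ∀ a c e, a ∈ S → a ∉ S' → c ∈ S →
    c ∈ S' → e ∈ S' → e ∉ S → False

theorem NoOv.eq {s : ℕ} {P : Finset α → Prop} (h : NoOv s P) {S S' : Finset α} (hc : S.card = s)
    (hc' : S'.card = s) (hP : P S) (hP' : P S') {x : α} (hx : x ∈ S) (hx' : x ∈ S') : S = S' := by
  by_contra hne
  have h1 : ¬ S ⊆ S' := fun h => hne (Finset.eq_of_subset_of_card_le h (by omega))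
  have h2 : ¬ S' ⊆ S := fun h => hne (Finset.eq_of_subset_of_card_le h (by omega)).symm
  obtain ⟨a, ha, ha'⟩ := Finset.not_subset.1 h1
  obtain ⟨e, he, he'⟩ := Finset.not_subset.1 h2
  exact h S S' hc hc' hP hP' a x e ha ha' hx hx' he he'

theorem NoOv.blk {H : Subgroup (Perm α)} {s : ℕ} {P : Finset α → Prop} (h : NoOv s P)
    (hconj : ∀ S, P S → ∀ g ∈ H, P (S.image g)) {S : Finset α} (hc : S.card = s) (hP : P S) :
    Blk H S := fun g hg x hx hgx y hy => by
  have := h.eq hc (by rw [card_img, hc]) hP (hconj S hP g hg) hgx (mem_img.2 (by simpa using hx))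
  rw [this]
  exact mem_img.2 (by simpa using hy)

theorem card_pow_of_trans {p : ℕ} [Fact p.Prime] {R : Subgroup (Perm α)} (hR : IsPGroup p R)
    {T : Finset α} {a : α} (h1 : ∀ g ∈ R, g a ∈ T) (h2 : ∀ b ∈ T, ∃ g ∈ R, g a = b) :
    ∃ j, T.card = p ^ j := by
  obtain ⟨j, hj⟩ := hR.card_orbit a
  refine ⟨j, ?_⟩
  have : MulAction.orbit R a = (T : Set α) := by
    ext b
    constructor
    · rintro ⟨g, rfl⟩; exact h1 g g.2
    · intro hb
      obtain ⟨g, hg, rfl⟩ := h2 b hb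
      exact ⟨⟨g, hg⟩, rfl⟩
  rw [this] at hj
  simpa using hj

theorem block_lemma {p : ℕ} [Fact p.Prime] {Q : Subgroup (Perm α)} (hQ : IsPGroup p Q)
    {T S : Finset α} (hT : Tr Q T) (hS : Blk Q S) {x : α} (hxT : x ∈ T) (hxS : x ∈ S) :
    T ⊆ S ∨ (S ⊆ T ∧ ∃ j, S.card = p ^ j) := by
  by_cases h : S ⊆ T
  · refine Or.inr ⟨h, ?_⟩
    let R : Subgroup (Perm α) :=
      { carrier := {g | g ∈ Q ∧ g x ∈ S}
        one_mem' := ⟨one_mem _, hxS⟩
        mul_mem' := fun {g g'} hg hg' => ⟨mul_mem hg.1 hg'.1, hS g hg.1 x hxS hg.2 _ hg'.2⟩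
        inv_mem' := fun {g} hg => ⟨inv_mem hg.1, hS _ (inv_mem hg.1) _ hg.2 (by simpa using hxS) x hxS⟩ }
    refine card_pow_of_trans (R := R) (hQ.to_le fun g hg => hg.1) (a := x) (fun g hg => hg.2)
      fun b hb => ?_
    obtain ⟨g, hg, h1, -⟩ := hT x hxT b (h hb)
    exact ⟨g, ⟨hg, h1 ▸ hb⟩, h1⟩
  · obtain ⟨z, hz, hz'⟩ := Finset.not_subset.1 h
    refine Or.inl fun b hb => ?_
    obtain ⟨g, hg, h1, h2⟩ := hT x hxT b hb
    exact h1 ▸ hS g hg z hz (by rwa [h2 z hz']) x hxS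

theorem fix_of_coprime {g : Perm α} {k : ℕ} (h : k.Coprime (orderOf g)) {a : α}
    (ha : (g ^ k) a = a) : g a = a := by
  obtain ⟨m, hm⟩ := exists_pow_eq_self_of_coprime h
  rw [← hm]
  exact pow_fix ha m

theorem fix_of_not_dvd {H : Subgroup (Perm α)} {p : ℕ} (hp : p.Prime) (hH : ¬ p ∣ Nat.card H)
    {g : Perm α} (hg : g ∈ H) {a : α} (ha : (g ^ p) a = a) : g a = a :=
  fix_of_coprime ((Nat.Prime.coprime_iff_not_dvd hp).2 fun h =>
    hH (h.trans (Subgroup.orderOf_dvd_natCard H hg))) ha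

theorem noOv_tr {p k : ℕ} [hp : Fact p.Prime] {Q : Subgroup (Perm α)} (hQ : IsPGroup p Q) :
    NoOv (p ^ k) (Tr Q) := by
  intro S S' hc hc' hS hS' a c e ha ha' hcS hcS' he he'
  let R : Subgroup (Perm α) :=
    { carrier := {g | g ∈ Q ∧ ∀ x ∉ S ∪ S', g x = x}
      one_mem' := ⟨one_mem _, fun _ _ => rfl⟩
      mul_mem' := fun {g g'} hg hg' => ⟨mul_mem hg.1 hg'.1, fun x hx => by
        rw [Perm.mul_apply, hg'.2 x hx, hg.2 x hx]⟩
      inv_mem' := fun {g} hg => ⟨inv_mem hg.1, fun x hx => by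
        rw [Perm.inv_eq_iff_eq, hg.2 x hx]⟩ }
  obtain ⟨j, hj⟩ := card_pow_of_trans (R := R) (hQ.to_le fun g hg => hg.1) (a := c) (T := S ∪ S')
    (fun g hg => by
      by_contra h
      have := g.injective (hg.2 _ h)
      exact h (by rw [this]; exact Finset.mem_union_left _ hcS))
    (fun b hb => by
      rcases Finset.mem_union.1 hb with hb | hb
      · obtain ⟨g, hg, h1, h2⟩ := hS c hcS b hb
        exact ⟨g, ⟨hg, fun x hx => h2 x fun h => hx (Finset.mem_union_left _ h)⟩, h1⟩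
      · obtain ⟨g, hg, h1, h2⟩ := hS' c hcS' b hb
        exact ⟨g, ⟨hg, fun x hx => h2 x fun h => hx (Finset.mem_union_right _ h)⟩, h1⟩)
  have h1 : S.card < (S ∪ S').card := Finset.card_lt_card
    ⟨Finset.subset_union_left, fun h => he' (h (Finset.mem_union_right _ he))⟩
  have h2 := Finset.card_union_add_card_inter S S'
  have h3 : 0 < (S ∩ S').card := Finset.card_pos.2 ⟨c, Finset.mem_inter.2 ⟨hcS, hcS'⟩⟩
  rw [hc, hj] at h1
  have h4 : k + 1 ≤ j := (Nat.pow_lt_pow_iff_right hp.out.one_lt).1 h1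
  have h5 : p ^ (k + 1) ≤ p ^ j := Nat.pow_le_pow_right hp.out.pos h4
  have h6 : p ^ k * 2 ≤ p ^ (k + 1) := by
    rw [pow_succ]; exact Nat.mul_le_mul_left _ hp.out.two_le
  omega

theorem noOv_tr2 {H : Subgroup (Perm α)} (h3 : ¬ 3 ∣ Nat.card H) (s : ℕ) : NoOv s (Tr2 H) := by
  intro S S' _ _ hS hS' a c e ha ha' hcS hcS' he he'
  obtain ⟨z, hz, h1, h2, h4⟩ := hS a ha c hcS
  obtain ⟨z', hz', h1', h2', h4'⟩ := hS' c hcS' e he
  have hw : (z * z') a = c := by rw [Perm.mul_apply, h4' a ha', h1]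
  have := fix_of_not_dvd Nat.prime_three h3 (mul_mem hz hz') (a := a) (by
    simp only [pow_succ, pow_zero, one_mul, Perm.mul_apply]
    rw [h4' a ha', h1, h1', h4 e he', h2', h2])
  rw [hw] at this
  exact ha' (this ▸ hcS')

theorem exists_step {x : Perm α} {S S' : Finset α} (hx : x.IsCycleOn S) {a c : α} (ha : a ∈ S)
    (ha' : a ∉ S') (hc : c ∈ S) (hc' : c ∈ S') : ∃ d ∈ S, d ∈ S' ∧ x d ∈ S ∧ x d ∉ S' := by
  by_contra h
  push Not at h
  have key : ∀ k : ℕ, (x ^ k) c ∈ S ∧ (x ^ k) c ∈ S' := by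
    intro k
    induction k with
    | zero => exact ⟨hc, hc'⟩
    | succ k ih =>
      rw [pow_succ', Perm.mul_apply]
      have h1 : x ((x ^ k) c) ∈ S := hx.1.mapsTo ih.1
      exact ⟨h1, h _ ih.1 ih.2 h1⟩
  obtain ⟨k, -, hk⟩ := hx.exists_pow_eq hc ha
  exact ha' (hk ▸ (key k).2)

theorem noOv_cy {H : Subgroup (Perm α)} (h2 : ¬ 2 ∣ Nat.card H) (s : ℕ) : NoOv s (Cy H) := by
  intro S S' _ _ hS hS' a c e ha ha' hcS hcS' he he'
  have key : ∀ u ∈ S', ∀ v ∈ S, v ∉ S' → ∃ g ∈ H, g e = u ∧ g a = v := by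
    intro u hu v hv hv'
    obtain ⟨g1, hg1, h1, h1'⟩ := hS.tr a ha v hv
    obtain ⟨g2, hg2, h3, h3'⟩ := hS'.tr e he u hu
    exact ⟨g2 * g1, mul_mem hg2 hg1, by rw [Perm.mul_apply, h1' e he', h3],
      by rw [Perm.mul_apply, h1, h3' v hv']⟩
  obtain ⟨x, hx, hx1, -⟩ := hS
  obtain ⟨d, hd, hd', hxd, hxd'⟩ := exists_step hx1 ha ha' hcS hcS'
  obtain ⟨d', he1, he2, he3, he4⟩ := exists_step hx1.inv ha ha' hcS hcS'
  obtain ⟨g, hg, hg1, hg2⟩ := key d hd' _ hxd hxd'
  obtain ⟨g', hg', hg1', hg2'⟩ := key d' he2 _ he3 he4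
  obtain ⟨k, -, hk⟩ := hx1.exists_pow_eq he1 hxd
  have hh : x ^ k * g' * g⁻¹ ∈ H := mul_mem (mul_mem (pow_mem hx k) hg') (inv_mem hg)
  have e1 : (x ^ k * g' * g⁻¹) d = x d := by
    rw [Perm.mul_apply, Perm.mul_apply, Perm.inv_eq_iff_eq.2 hg1.symm, hg1', hk]
  have e2 : (x ^ k * g' * g⁻¹) (x d) = d := by
    rw [Perm.mul_apply, Perm.mul_apply, Perm.inv_eq_iff_eq.2 hg2.symm, hg2']
    apply x.injective
    rw [← Perm.mul_apply x, ← pow_succ', pow_succ, Perm.mul_apply]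
    simpa using hk
  have := fix_of_not_dvd Nat.prime_two h2 hh (a := d) (by rw [pow_two, Perm.mul_apply, e1, e2])
  rw [e1] at this
  exact hxd' (by rwa [this])

theorem dvd_card_of_cover {s : ℕ} {P : Finset α → Prop} (h : NoOv s P) (X : Finset α)
    (hX : ∀ x ∈ X, ∃ S : Finset α, S.card = s ∧ P S ∧ x ∈ S ∧ S ⊆ X) : s ∣ X.card := by
  induction X using Finset.strongInduction with
  | H X ih =>
    rcases X.eq_empty_or_nonempty with rfl | ⟨x, hx⟩
    · simp
    obtain ⟨S, hc, hP, hxS, hSX⟩ := hX x hx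
    have h1 := ih (X \ S) (Finset.sdiff_ssubset hSX ⟨x, hxS⟩) fun y hy => by
      obtain ⟨hy1, hy2⟩ := Finset.mem_sdiff.1 hy
      obtain ⟨S', hc', hP', hy', hS'⟩ := hX y hy1
      refine ⟨S', hc', hP', hy', fun z hz => Finset.mem_sdiff.2 ⟨hS' hz, fun hzS => hy2 ?_⟩⟩
      rw [h.eq hc hc' hP hP' hzS hz]; exact hy'
    rw [← Finset.card_sdiff_add_card_eq_card hSX, hc]
    exact dvd_add h1 dvd_rfl

/-- the stabiliser of a colouring -/
def colStab {ι : Type*} (f : α → ι) : Subgroup (Perm α) where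
  carrier := {g | f ∘ g = f}
  one_mem' := rfl
  mul_mem' := fun {g g'} hg hg' => by
    change f ∘ (g ∘ g') = f
    rw [← Function.comp_assoc, hg, hg']
  inv_mem' := fun {g} hg => by
    funext x
    have := congrFun hg (g⁻¹ x)
    simpa using this.symm

theorem card_colStab {ι : Type*} [Fintype ι] [DecidableEq ι] (f : α → ι) :
    Nat.card (colStab f) = ∏ i, (Finset.univ.filter fun a => f a = i).card.factorial := by
  have := DomMulAct.stabilizer_card f
  simp only [Fintype.card_subtype] at this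
  rw [← this, ← Fintype.card_subtype, ← Nat.card_eq_fintype_card]
  rfl

theorem relIndex_alt_eq_index {N : Subgroup (Perm α)} (h : ¬ N ≤ alternatingGroup α) :
    N.relIndex (alternatingGroup α) = N.index := by
  have h1 := Subgroup.relIndex_mul_index (inf_le_left : N ⊓ alternatingGroup α ≤ N)
  have h2 := Subgroup.relIndex_mul_index (inf_le_right : N ⊓ alternatingGroup α ≤ _)
  rw [Subgroup.inf_relIndex_left] at h1
  rw [Subgroup.inf_relIndex_right] at h2
  have h3 := Subgroup.relIndex_dvd_index_of_normal (alternatingGroup α) N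
  have h4 : (alternatingGroup α).relIndex N ≠ 1 := fun h' => h (Subgroup.relIndex_eq_one.1 h')
  cases subsingleton_or_nontrivial α
  · rw [alternatingGroup.index_eq_one, Nat.dvd_one] at h3
    exact absurd h3 h4
  rw [alternatingGroup.index_eq_two] at h2 h3
  rcases (Nat.dvd_prime Nat.prime_two).1 h3 with h5 | h5
  · exact absurd h5 h4
  · rw [h5] at h1; omega

/-- the colouring by two disjoint sets -/
def col (B B' : Finset α) (x : α) : Fin 3 := if x ∈ B then 0 else if x ∈ B' then 1 else 2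

theorem card_col {B B' : Finset α} (h : Disjoint B B') :
    Nat.card (colStab (col B B')) =
      B.card.factorial * B'.card.factorial * (Fintype.card α - (B.card + B'.card)).factorial := by
  rw [card_colStab, Fin.prod_univ_three]
  have h0 : (Finset.univ.filter fun a => col B B' a = 0) = B := by
    ext x; rw [Finset.mem_filter]; simp only [col, Finset.mem_univ, true_and]
    split_ifs <;> simp [*]
  have h1 : (Finset.univ.filter fun a => col B B' a = 1) = B' := by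
    ext x; rw [Finset.mem_filter]; simp only [col, Finset.mem_univ, true_and]
    split_ifs with h1 h2
    · simpa using Finset.disjoint_left.1 h h1
    · simp [*]
    · simp [*]
  have h2 : (Finset.univ.filter fun a => col B B' a = 2) = (B ∪ B')ᶜ := by
    ext x; rw [Finset.mem_filter]; simp only [col, Finset.mem_univ, true_and]
    split_ifs <;> simp [*]
  rw [h0, h1, h2, Finset.card_compl, Finset.card_union_of_disjoint h]

theorem index_col {B B' : Finset α} (h : Disjoint B B') :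
    (colStab (col B B')).index =
      (Fintype.card α).choose (B.card + B'.card) * (B.card + B'.card).choose B'.card := by
  have h1 := (colStab (col B B')).index_mul_card
  rw [card_col h, Nat.card_eq_fintype_card, Fintype.card_perm] at h1
  have h2 : B.card + B'.card ≤ Fintype.card α := by
    rw [← Finset.card_union_of_disjoint h]; exact Finset.card_le_univ _
  have h3 := Nat.choose_mul_factorial_mul_factorial h2
  have h4 := Nat.add_choose_mul_factorial_mul_factorial B.card B'.card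
  refine Nat.eq_of_mul_eq_mul_right (by positivity) (h1.trans ?_)
  rw [← h3, ← h4]; ring

theorem le_colStab {K : Subgroup (Perm α)} {B B' : Finset α} (hB : Inv K B) (hB' : Inv K B') :
    K ≤ colStab (col B B') := fun g hg => by
  funext x
  simp only [Function.comp_apply, col]
  by_cases h1 : x ∈ B
  · simp [h1, hB g hg x h1]
  · by_cases h2 : x ∈ B'
    · simp [h1, h2, hB.not_mem hg h1, hB' g hg x h2]
    · simp [h1, h2, hB.not_mem hg h1, hB'.not_mem hg h2]

theorem swap_mem_col {B B' : Finset α} {a b : α} (ha : a ∈ B) (hb : b ∈ B) :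
    swap a b ∈ colStab (col B B') := by
  funext x
  simp only [Function.comp_apply, col, swap_apply_def]
  split_ifs <;> simp_all

theorem choose_dvd_relIndex {K : Subgroup (Perm α)} {B B' : Finset α} (h : Disjoint B B')
    (hB : Inv K B) (hB' : Inv K B') (h2 : 2 ≤ B.card) :
    (B.card + B'.card).choose B'.card ∣ K.relIndex (alternatingGroup α) := by
  refine Dvd.dvd.trans ?_ (Subgroup.relIndex_dvd_of_le_left _ (le_colStab hB hB'))
  obtain ⟨a, ha, b, hb, hab⟩ := Finset.one_lt_card.1 h2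
  rw [relIndex_alt_eq_index, index_col h]
  · exact Dvd.intro_left _ rfl
  · intro hle
    have := Perm.mem_alternatingGroup.1 (hle (swap_mem_col ha hb))
    rw [Perm.sign_swap hab] at this
    exact absurd this (by decide)

end Cfsg.Agent.Lib.HallSym
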