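import Cfsg.Agent.Lib.Hall.Sym1

set_option autoImplicit false
set_option linter.unusedSectionVars false

namespace Cfsg.Agent.Lib.HallSym

open Cfsg Equiv Equiv.Perm

variable {α : Type*} [Fintype α] [DecidableEq α]

/-- the three-cycle `a ↦ b ↦ c ↦ a` lies in `H` -/
def T3 (H : Subgroup (Perm α)) (a b c : α) : Prop :=
  a ≠ b ∧ a ≠ c ∧ b ≠ c ∧ swap a b * swap b c ∈ H

variable {H : Subgroup (Perm α)}

theorem T3.rot {a b c : α} (h : T3 H a b c) : T3 H b c a := by
  obtain ⟨h1, h2, h3, h4⟩ := h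
  refine ⟨h3, h1.symm, h2.symm, ?_⟩
  have : swap b c * swap c a = swap a b * swap b c := by
    ext x
    simp only [Perm.mul_apply, swap_apply_def]
    grind
  rwa [this]

theorem T3.flip {a b c : α} (h : T3 H a b c) : T3 H c b a := by
  obtain ⟨h1, h2, h3, h4⟩ := h
  refine ⟨h3.symm, h2.symm, h1.symm, ?_⟩
  have := inv_mem h4
  rwa [mul_inv_rev, swap_inv, swap_inv, swap_comm b c, swap_comm a b] at this

theorem conj_swap (g : Perm α) (a b c : α) : g * (swap a b * swap b c) * g⁻¹ =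
    swap (g a) (g b) * swap (g b) (g c) := by
  rw [swap_apply_apply, swap_apply_apply]; group

theorem T3.conj {a b c : α} (h : T3 H a b c) {g : Perm α} (hg : g ∈ H) :
    T3 H (g a) (g b) (g c) := by
  obtain ⟨h1, h2, h3, h4⟩ := h
  refine ⟨g.injective.ne h1, g.injective.ne h2, g.injective.ne h3, ?_⟩
  rw [← conj_swap]
  exact self_conj hg _ h4

theorem T3.conj' {a b c u v w x y z : α} (h : T3 H a b c) (h' : T3 H u v w)
    (hx : (swap u v * swap v w) a = x) (hy : (swap u v * swap v w) b = y)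
    (hz : (swap u v * swap v w) c = z) : T3 H x y z := by
  rw [← hx, ← hy, ← hz]; exact h.conj h'.2.2.2

/-- the equivalence relation given by the three-cycles of `H` -/
def Rl (H : Subgroup (Perm α)) (a b : α) : Prop := a = b ∨ ∃ c, T3 H a b c

theorem T3.of_rl {a b c : α} (hab : Rl H a b) (hbc : Rl H b c) (h1 : a ≠ b) (h2 : a ≠ c)
    (h3 : b ≠ c) : T3 H a b c := by
  obtain ⟨x, hx⟩ := hab.resolve_left h1
  obtain ⟨y, hy⟩ := hbc.resolve_left h3
  by_cases hxc : x = c
  · exact hxc ▸ hx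
  by_cases hya : y = a
  · subst hya; exact hy.rot.rot
  have hx' := hx
  have hy' := hy
  obtain ⟨-, e1, e2, -⟩ := hx'
  obtain ⟨-, e3, e4, -⟩ := hy'
  by_cases hxy : x = y
  · subst hxy
    have : T3 H a c b := hx.conj' hy (by simp only [Perm.mul_apply, swap_apply_def]; grind)
      (by simp only [Perm.mul_apply, swap_apply_def]; grind)
      (by simp only [Perm.mul_apply, swap_apply_def]; grind)
    exact this.flip.rot.rot
  · have h5 : T3 H a c x := hx.conj' hy (by simp only [Perm.mul_apply, swap_apply_def]; grind)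
      (by simp only [Perm.mul_apply, swap_apply_def]; grind)
      (by simp only [Perm.mul_apply, swap_apply_def]; grind)
    have h6 : T3 H c b a := hx.conj' h5 (by simp only [Perm.mul_apply, swap_apply_def]; grind)
      (by simp only [Perm.mul_apply, swap_apply_def]; grind)
      (by simp only [Perm.mul_apply, swap_apply_def]; grind)
    exact h6.flip

theorem Rl.refl (a : α) : Rl H a a := Or.inl rfl

theorem Rl.symm {a b : α} (h : Rl H a b) : Rl H b a := by
  rcases h with rfl | ⟨c, hc⟩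
  · exact Rl.refl _
  · exact Or.inr ⟨c, hc.flip.rot⟩

theorem Rl.trans {a b c : α} (h : Rl H a b) (h' : Rl H b c) : Rl H a c := by
  by_cases h1 : a = b
  · exact h1 ▸ h'
  by_cases h2 : a = c
  · exact Or.inl h2
  by_cases h3 : b = c
  · exact h3 ▸ h
  exact Or.inr ⟨b, (T3.of_rl h h' h1 h2 h3).flip.rot.rot⟩

theorem Rl.conj {a b : α} (h : Rl H a b) {g : Perm α} (hg : g ∈ H) : Rl H (g a) (g b) := by
  rcases h with rfl | ⟨c, hc⟩
  · exact Rl.refl _
  · exact Or.inr ⟨_, hc.conj hg⟩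

open Classical in
noncomputable def cls (H : Subgroup (Perm α)) (a : α) : Finset α := Finset.univ.filter (Rl H a)

theorem mem_cls {a b : α} : b ∈ cls H a ↔ Rl H a b := by simp [cls]

theorem self_mem_cls (a : α) : a ∈ cls H a := mem_cls.2 (Rl.refl a)

theorem cls_eq {a b : α} (h : Rl H a b) : cls H a = cls H b := by
  ext x; simp only [mem_cls]; exact ⟨h.symm.trans, h.trans⟩

theorem cls_disj {a b : α} (h : ¬ Rl H a b) : Disjoint (cls H a) (cls H b) :=
  Finset.disjoint_left.2 fun _ h1 h2 => h ((mem_cls.1 h1).trans (mem_cls.1 h2).symm)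

theorem cls_img {g : Perm α} (hg : g ∈ H) (a : α) : cls H (g a) = (cls H a).image g := by
  ext x
  rw [mem_img, mem_cls, mem_cls]
  constructor
  · intro h; simpa using h.conj (inv_mem hg)
  · intro h; simpa using h.conj hg

theorem card_cls_conj {g : Perm α} (hg : g ∈ H) (a : α) : (cls H (g a)).card = (cls H a).card := by
  rw [cls_img hg, card_img]

theorem blk_cls (a : α) : Blk H (cls H a) := fun g hg x hx hgx y hy => by
  rw [mem_cls] at *
  exact hgx.trans ((hx.symm.trans hy).conj hg)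

theorem card_cls_pos (a : α) : 0 < (cls H a).card := Finset.card_pos.2 ⟨a, self_mem_cls a⟩

theorem T3.three_le {a b c : α} (hc : T3 H a b c) : 3 ≤ (cls H a).card := by
  have : ({a, b, c} : Finset α) ⊆ cls H a := by
    intro x hx
    simp only [Finset.mem_insert, Finset.mem_singleton] at hx
    rcases hx with rfl | rfl | rfl
    · exact self_mem_cls _
    · exact mem_cls.2 (Or.inr ⟨_, hc⟩)
    · exact mem_cls.2 (Or.inr ⟨_, hc.flip.rot.rot⟩)
  have h2 := Finset.card_le_card this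
  rwa [Finset.card_eq_three.2 ⟨a, b, c, hc.1, hc.2.1, hc.2.2.1, rfl⟩] at h2

theorem card_cls_cases (a : α) : (cls H a).card = 1 ∨ 3 ≤ (cls H a).card := by
  by_cases h : ∃ b c, T3 H a b c
  · obtain ⟨b, c, hc⟩ := h
    exact Or.inr hc.three_le
  · left
    rw [Finset.card_eq_one]
    refine ⟨a, Finset.eq_singleton_iff_unique_mem.2 ⟨self_mem_cls a, fun x hx => ?_⟩⟩
    rcases mem_cls.1 hx with rfl | ⟨c, hc⟩
    · rfl
    · exact absurd ⟨x, c, hc⟩ h

theorem prime_dvd_card_of_le_cls {a : α} {q : ℕ} (hq : q.Prime) (hq2 : q ≠ 2)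
    (h : q ≤ (cls H a).card) : q ∣ Nat.card H := by
  let φ : Perm {x // x ∈ cls H a} →* Perm α := Perm.ofSubtype
  have hφ : Function.Injective φ := Perm.ofSubtype_injective
  have h1 : alternatingGroup {x // x ∈ cls H a} ≤ H.comap φ := by
    rw [← closure_three_cycles_eq_alternating, Subgroup.closure_le]
    intro σ hσ
    have hσ : σ.IsThreeCycle := hσ
    obtain ⟨x, hx⟩ := Finset.card_pos.1 (hσ.card_support ▸ three_pos : 0 < σ.support.card)
    have h2 := hσ.nodup_iff_mem_support.2 hx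
    simp only [List.nodup_cons, List.mem_cons, List.not_mem_nil, or_false, not_or] at h2
    change φ σ ∈ H
    rw [hσ.eq_swap_mul_swap_iff_mem_support.2 hx, map_mul]
    simp only [φ, Perm.ofSubtype_swap_eq]
    exact (T3.of_rl ((mem_cls.1 x.2).symm.trans (mem_cls.1 (σ x).2))
      ((mem_cls.1 (σ x).2).symm.trans (mem_cls.1 (σ (σ x)).2))
      (Subtype.val_injective.ne h2.1.1) (Subtype.val_injective.ne h2.1.2)
      (Subtype.val_injective.ne h2.2.1)).2.2.2
  refine Dvd.dvd.trans ?_ ((Subgroup.card_dvd_of_le h1).trans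
    (Subgroup.card_comap_dvd_of_injective H φ hφ))
  have h2 := hq.two_le
  haveI : Nontrivial {x // x ∈ cls H a} := Fintype.one_lt_card_iff_nontrivial.1 (by
    rw [Fintype.card_coe]; omega)
  have h3 : q ∣ 2 * Nat.card (alternatingGroup {x // x ∈ cls H a}) := by
    rw [two_mul_nat_card_alternatingGroup, Nat.card_eq_fintype_card, Fintype.card_perm,
      Fintype.card_coe]
    exact (hq.dvd_factorial).2 h
  exact ((Nat.Prime.dvd_mul hq).1 h3).resolve_left fun h =>
    hq2 ((Nat.prime_dvd_prime_iff_eq hq Nat.prime_two).1 h)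

/-- the union of the classes of size `m` -/
noncomputable def sz (H : Subgroup (Perm α)) (m : ℕ) : Finset α :=
  Finset.univ.filter fun x => (cls H x).card = m

theorem mem_sz {m : ℕ} {x : α} : x ∈ sz H m ↔ (cls H x).card = m := by simp [sz]

theorem inv_sz (m : ℕ) : Inv H (sz H m) := fun g hg x hx => by
  rw [mem_sz] at *; rw [card_cls_conj hg, hx]

theorem Syl.exists_T3 {Q : Subgroup (Perm α)} (hQ : Syl 3 Q) (hQH : Q ≤ H) {D : Finset α}
    (hD : Inv Q D) (h : 3 ≤ D.card) : ∃ a ∈ D, 3 ≤ (cls H a).card := by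
  haveI : Fact (Nat.Prime 3) := ⟨Nat.prime_three⟩
  obtain ⟨S, hS, hc⟩ := Finset.exists_subset_card_eq h
  obtain ⟨a, b, c, h1, h2, h3, rfl⟩ := Finset.card_eq_three.1 hc
  have ha : a ∈ D := hS (by simp)
  have hb : b ∈ D := hS (by simp)
  have hc' : c ∈ D := hS (by simp)
  have h4 : (swap a b * swap b c) ^ 3 = 1 := by
    ext x
    simp only [pow_succ, pow_zero, one_mul, Perm.mul_apply, swap_apply_def, Perm.one_apply]
    grind
  obtain ⟨l, hl, hl'⟩ := hQ.conj_into hD (zpowers_pgroup h4)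
    (Subgroup.zpowers_le.2 (mem_alt_of_pow_odd (by decide) h4)) (by
      rintro _ ⟨k, rfl⟩ x hx
      refine Perm.zpow_apply_eq_self_of_apply_eq_self ?_ k
      simp only [Perm.mul_apply, swap_apply_def]
      grind)
  have h5 := hl' _ (Subgroup.mem_zpowers _)
  rw [conj_swap] at h5
  refine ⟨l a, img_sub hS hl (Finset.mem_image_of_mem _ (by simp)),
    T3.three_le (b := l b) (c := l c) ⟨l.injective.ne h1, l.injective.ne h2, l.injective.ne h3, hQH h5⟩⟩

theorem card_sz_one {Q : Subgroup (Perm α)} (hQ : Syl 3 Q) (hQH : Q ≤ H) : (sz H 1).card ≤ 2 := by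
  by_contra h
  obtain ⟨a, ha, h1⟩ := hQ.exists_T3 hQH ((inv_sz 1).mono hQH) (by omega)
  rw [mem_sz] at ha
  omega

theorem tr_sub_cls {p s : ℕ} [Fact p.Prime] {Q : Subgroup (Perm α)} (hQ : IsPGroup p Q)
    (hQH : Q ≤ H) (h1 : (sz H 1).card ≤ 2) (hs3 : 3 ≤ s)
    (hs : ∀ j, p ^ j < s → p ^ j ≤ 2) {S : Finset α} (hc : S.card = s) (hS : Tr Q S) {x : α}
    (hx : x ∈ S) : S ⊆ cls H x := by
  by_contra h
  have : S ⊆ sz H 1 := fun y hy => by
    rcases block_lemma hQ hS ((blk_cls y).mono hQH) hy (self_mem_cls y) with h2 | ⟨h2, j, hj⟩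
    · exact absurd (by rw [← cls_eq (mem_cls.1 (h2 hx))]; exact h2) h
    · have h3 : cls H y ≠ S := fun h3 => h (by
        have : x ∈ cls H y := h3 ▸ hx
        rw [← cls_eq (mem_cls.1 this), h3])
      have h4 := Finset.card_lt_card (lt_of_le_of_ne h2 h3)
      have h5 := hs j (by omega)
      rw [mem_sz]
      rcases card_cls_cases (H := H) y with h | h <;> omega
  have := Finset.card_le_card this
  omega

theorem residue_bound {p k : ℕ} [hp : Fact p.Prime] {Q : Subgroup (Perm α)} (hQ : IsPGroup p Q)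
    (hQH : Q ≤ H) (h1 : (sz H 1).card ≤ 2) (hs3 : 3 ≤ p ^ k)
    (hs : ∀ j, p ^ j < p ^ k → p ^ j ≤ 2)
    (hex : ∀ D, Inv Q D → p ^ k ≤ D.card → ∃ S ⊆ D, S.card = p ^ k ∧ Tr Q S)
    (F : Finset α) (hF : ∀ a ∈ F, ∀ b ∈ F, Rl H a b → a = b) :
    ∑ a ∈ F, (cls H a).card % p ^ k < p ^ k := by
  have hD := card_unc_lt (H := Q) (P := Tr Q) (by omega : 0 < p ^ k)
    (fun S hS g hg => hS.conj (self_conj hg)) hex
  set D := unc (p ^ k) (Tr Q)
  have key : ∀ a, (cls H a).card % p ^ k ≤ (cls H a ∩ D).card := by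
    intro a
    have h2 : p ^ k ∣ (cls H a \ D).card := by
      refine dvd_card_of_cover (noOv_tr hQ) _ fun x hx => ?_
      obtain ⟨hx1, hx2⟩ := Finset.mem_sdiff.1 hx
      rw [mem_unc, not_not] at hx2
      obtain ⟨S, hc, hS, hxS⟩ := hx2
      refine ⟨S, hc, hS, hxS, fun y hy => Finset.mem_sdiff.2 ⟨?_, fun h => ?_⟩⟩
      · rw [cls_eq (mem_cls.1 hx1)]
        exact tr_sub_cls hQ hQH h1 hs3 hs hc hS hxS hy
      · exact mem_unc.1 h ⟨S, hc, hS, hy⟩
    obtain ⟨t, ht⟩ := h2
    rw [← Finset.card_sdiff_add_card_inter (cls H a) D, ht, Nat.mul_add_mod]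
    exact Nat.mod_le _ _
  refine lt_of_le_of_lt (Finset.sum_le_sum fun a _ => key a) (lt_of_le_of_lt ?_ hD)
  rw [← Finset.card_biUnion]
  · exact Finset.card_le_card (Finset.biUnion_subset.2 fun a _ => Finset.inter_subset_right)
  · intro a ha b hb hab
    exact (cls_disj fun h => hab (hF a ha b hb h)).mono Finset.inter_subset_left
      Finset.inter_subset_left

/-- `H ∩ A_n` is a Hall `π`-subgroup of `A_n` and `H` is a `π`-group. -/
structure HallA (π : Set ℕ) (H : Subgroup (Perm α)) : Prop where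
  pi : IsPiSubgroup π H
  idx : ∀ p : ℕ, p.Prime → p ∈ π → ¬ p ∣ H.relIndex (alternatingGroup α)

variable {π : Set ℕ}

theorem HallA.syl (hH : HallA π H) {p : ℕ} (hp : p.Prime) (hπ : p ∈ π) :
    ∃ Q, Q ≤ H ∧ Syl p Q := by
  haveI : Fact p.Prime := ⟨hp⟩
  obtain ⟨Q, h1, h2, h3, h4⟩ := exists_sylow_le (hH.idx p hp hπ)
  exact ⟨Q, h1, h3, h2, h4⟩

theorem HallA.no_blocks (hH : HallA π H) {q s : ℕ} (hq : q.Prime) (hq2 : q ≠ 2) (hπ : q ∈ π)
    (hqn : q ≤ Fintype.card α) (hs1 : 1 < s) (hsq : s < q) {P : Finset α → Prop} (hov : NoOv s P)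
    (hconj : ∀ S, P S → ∀ g ∈ H, P (S.image g))
    (hex : ∀ D, Inv H D → s ≤ D.card → ∃ S ⊆ D, S.card = s ∧ P S) : False := by
  haveI : Fact q.Prime := ⟨hq⟩
  have hD := card_unc_lt (by omega) hconj hex
  obtain ⟨Q, hQH, hQ⟩ := hH.syl hq hπ
  obtain ⟨T, -, hT, hT'⟩ := hQ.exists_cy hq2 (D := Finset.univ) (fun _ _ _ _ => Finset.mem_univ _) hqn
  obtain ⟨x, hx, hx'⟩ := Finset.exists_mem_notMem_of_card_lt_card (s := unc s P) (t := T) (by omega)
  rw [mem_unc, not_not] at hx'
  obtain ⟨S, hc, hP, hxS⟩ := hx'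
  rcases block_lemma hQ.pg hT'.tr ((hov.blk hconj hc hP).mono hQH) hx hxS with h | ⟨-, j, hj⟩
  · have := Finset.card_le_card h; omega
  · rcases j with _ | j
    · simp at hj; omega
    · have : q ≤ q ^ (j + 1) := Nat.le_self_pow (by omega) q
      omega

theorem HallA.two_mem (hH : HallA π H) {p q : ℕ} (hp : p.Prime) (hq : q.Prime) (hpq : p < q)
    (hpπ : p ∈ π) (hqπ : q ∈ π) (hqn : q ≤ Fintype.card α) : 2 ∈ π := by
  by_contra h2
  have hp2 : p ≠ 2 := by rintro rfl; exact h2 hpπ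
  have hq2 : q ≠ 2 := by rintro rfl; exact h2 hqπ
  haveI : Fact p.Prime := ⟨hp⟩
  obtain ⟨Q, hQH, hQ⟩ := hH.syl hp hpπ
  refine hH.no_blocks hq hq2 hqπ hqn hp.one_lt hpq
    (noOv_cy (fun h => h2 (hH.pi 2 Nat.prime_two h)) p)
    (fun S hS g hg => hS.conj (self_conj hg)) fun D hD h => ?_
  obtain ⟨S, h1, h2, h3⟩ := hQ.exists_cy hp2 (hD.mono hQH) h
  exact ⟨S, h1, h2, h3.mono hQH⟩

theorem HallA.three_mem (hH : HallA π H) (h2 : 2 ∈ π) {q : ℕ} (hq : q.Prime) (hq2 : q ≠ 2)
    (hqπ : q ∈ π) (hqn : q ≤ Fintype.card α) : 3 ∈ π := by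
  by_contra h3
  have hq3 : q ≠ 3 := by rintro rfl; exact h3 hqπ
  have hq4 : q ≠ 4 := by rintro rfl; exact absurd hq (by decide)
  have := hq.two_le
  obtain ⟨Q, hQH, hQ⟩ := hH.syl Nat.prime_two h2
  refine hH.no_blocks hq hq2 hqπ hqn (s := 4) (by omega) (by omega)
    (noOv_tr2 (fun h => h3 (hH.pi 3 Nat.prime_three h)) 4)
    (fun S hS g hg => hS.conj (self_conj hg)) fun D hD h => ?_
  obtain ⟨S, h1, h2, h3⟩ := hQ.exists_tr2 (hD.mono hQH) h
  exact ⟨S, h1, h2, h3.mono hQH⟩

theorem HallA.sz_one (hH : HallA π H) (h3 : 3 ∈ π) : (sz H 1).card ≤ 2 := by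
  obtain ⟨Q, hQH, hQ⟩ := hH.syl Nat.prime_three h3
  exact card_sz_one hQ hQH

theorem pow_lt_prime {q : ℕ} (j : ℕ) (h : q ^ j < q ^ 1) : q ^ j ≤ 2 := by
  rcases j with _ | j
  · simp
  · have : q ≤ q ^ (j + 1) := Nat.le_self_pow (by omega) q
    rw [pow_one] at h
    omega

theorem HallA.res_odd (hH : HallA π H) (h3 : 3 ∈ π) {q : ℕ} (hq : q.Prime) (hq2 : q ≠ 2)
    (hπ : q ∈ π) (F : Finset α) (hF : ∀ a ∈ F, ∀ b ∈ F, Rl H a b → a = b) :
    ∑ a ∈ F, (cls H a).card % q < q := by
  haveI : Fact q.Prime := ⟨hq⟩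
  obtain ⟨Q, hQH, hQ⟩ := hH.syl hq hπ
  have := hq.two_le
  have := residue_bound (k := 1) hQ.pg hQH (hH.sz_one h3) (by rw [pow_one]; omega) pow_lt_prime
    (fun D hD h => by
      rw [pow_one] at h ⊢
      obtain ⟨S, h1, h2, h3⟩ := hQ.exists_cy hq2 hD h
      exact ⟨S, h1, h2, h3.tr⟩) F hF
  rwa [pow_one] at this

theorem HallA.res_four (hH : HallA π H) (h2 : 2 ∈ π) (h3 : 3 ∈ π)
    (F : Finset α) (hF : ∀ a ∈ F, ∀ b ∈ F, Rl H a b → a = b) :
    ∑ a ∈ F, (cls H a).card % 4 < 4 := by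
  obtain ⟨Q, hQH, hQ⟩ := hH.syl Nat.prime_two h2
  exact residue_bound (p := 2) (k := 2) hQ.pg hQH (hH.sz_one h3) (by norm_num)
    (fun j hj => by
      have : j < 2 := (Nat.pow_lt_pow_iff_right (by norm_num)).1 hj
      interval_cases j <;> norm_num)
    (fun D hD h => by
      obtain ⟨S, h1, h2, h3⟩ := hQ.exists_tr2 hD h
      exact ⟨S, h1, h2, h3.tr⟩) F hF

theorem res_two {s : ℕ} (h : ∀ F : Finset α, (∀ a ∈ F, ∀ b ∈ F, Rl H a b → a = b) →
    ∑ a ∈ F, (cls H a).card % s < s) {a b : α} (hab : ¬ Rl H a b) :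
    (cls H a).card % s + (cls H b).card % s < s := by
  have hne : a ≠ b := fun h => hab (Or.inl h)
  have := h {a, b} (by
    simp only [Finset.mem_insert, Finset.mem_singleton]
    rintro x (rfl | rfl) y (rfl | rfl) h
    · rfl
    · exact absurd h hab
    · exact absurd h.symm hab
    · rfl)
  rwa [Finset.sum_pair hne] at this

theorem res_three {s : ℕ} (h : ∀ F : Finset α, (∀ a ∈ F, ∀ b ∈ F, Rl H a b → a = b) →
    ∑ a ∈ F, (cls H a).card % s < s) {a b c : α} (hab : ¬ Rl H a b) (hac : ¬ Rl H a c)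
    (hbc : ¬ Rl H b c) :
    (cls H a).card % s + (cls H b).card % s + (cls H c).card % s < s := by
  have h1 : a ≠ b := fun h => hab (Or.inl h)
  have h2 : a ≠ c := fun h => hac (Or.inl h)
  have h3 : b ≠ c := fun h => hbc (Or.inl h)
  have := h {a, b, c} (by
    simp only [Finset.mem_insert, Finset.mem_singleton]
    rintro x (rfl | rfl | rfl) y (rfl | rfl | rfl) h
    all_goals first | rfl | exact absurd h ‹_› | exact absurd h.symm ‹_›)
  rwa [Finset.sum_insert (by simp [h1, h2]), Finset.sum_pair h3, ← add_assoc] at this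

theorem HallA.le_cls (hH : HallA π H) (h3 : 3 ∈ π) {q : ℕ} (hq : q.Prime) (hq2 : q ≠ 2)
    (hπ : q ∈ π) (hqn : q ≤ Fintype.card α) : ∃ a, q ≤ (cls H a).card := by
  haveI : Fact q.Prime := ⟨hq⟩
  obtain ⟨Q, hQH, hQ⟩ := hH.syl hq hπ
  obtain ⟨T, -, hT, hT'⟩ := hQ.exists_cy hq2 (D := Finset.univ) (fun _ _ _ _ => Finset.mem_univ _) hqn
  have := hq.two_le
  obtain ⟨x, hx⟩ := Finset.card_pos.1 (by omega : 0 < T.card)
  refine ⟨x, hT ▸ Finset.card_le_card (tr_sub_cls hQ.pg hQH (hH.sz_one h3) (by omega)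
    (fun j hj => pow_lt_prime j (by rwa [pow_one])) hT hT'.tr hx)⟩

theorem HallA.mem_of_le_cls (hH : HallA π H) (h2 : 2 ∈ π) {a : α} {q : ℕ} (hq : q.Prime)
    (h : q ≤ (cls H a).card) : q ∈ π := by
  by_cases hq2 : q = 2
  · exact hq2 ▸ h2
  · exact hH.pi q hq (prime_dvd_card_of_le_cls hq hq2 h)

theorem HallA.two_cls (hH : HallA π H) (h2 : 2 ∈ π) (h3 : 3 ∈ π) {a b : α} (hab : ¬ Rl H a b)
    (hc : (cls H b).card = (cls H a).card) (hm : 3 ≤ (cls H a).card) :
    (cls H a).card = 4 ∧ ∀ c, ¬ Rl H a c → ¬ Rl H b c → (cls H c).card % 3 = 0 := by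
  have r3 := hH.res_odd h3 Nat.prime_three (by norm_num) h3
  have h4 : (cls H a).card = 4 := by
    refine nt2 hm ?_ (fun q hq hq2 hqm => ?_) fun hm3 => ?_
    · have := res_two (hH.res_four h2 h3) hab
      omega
    · have := res_two (hH.res_odd h3 hq hq2 (hH.mem_of_le_cls h2 hq hqm)) hab
      rw [hc] at this; omega
    · obtain ⟨Q, hQH, hQ⟩ := hH.syl Nat.prime_three h3
      haveI : Fact (Nat.Prime 3) := ⟨Nat.prime_three⟩
      have key : ∀ {a b : α}, ¬ Rl H a b → (cls H b).card = (cls H a).card →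
          (cls H a).card % 3 = 1 → Inv Q (cls H a) := by
        intro a b hab hc hm3
        have k1 : ∀ g ∈ H, ∀ x, (cls H x).card = (cls H a).card → Rl H a (g x) ∨ Rl H b (g x) := by
          intro g hg x hx
          by_contra h
          push Not at h
          have := res_three r3 hab h.1 h.2
          rw [card_cls_conj hg, hx, hc] at this
          omega
        intro g hg x hx
        have hg' := hQH hg
        suffices h : Rl H a (g a) from mem_cls.2 (h.trans ((mem_cls.1 hx).conj hg'))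
        by_contra hn
        have e1 := (k1 g hg' a rfl).resolve_left hn
        have e2 : Rl H a (g b) := (k1 g hg' b hc).resolve_right fun h => hab (by
          simpa using (e1.symm.trans h).conj (inv_mem hg'))
        have e3 : Rl H a ((g ^ 2) a) := by
          rw [pow_two, Perm.mul_apply]; exact e2.trans (e1.conj hg')
        obtain ⟨j, hj⟩ := (IsPGroup.iff_orderOf.1 hQ.pg) ⟨g, hg⟩
        rw [Subgroup.orderOf_mk] at hj
        obtain ⟨m, hm⟩ := exists_pow_eq_self_of_coprime (x := g) (n := 2)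
          (by rw [hj]; exact Nat.Coprime.pow_right _ (by norm_num))
        have e4 : ∀ m : ℕ, Rl H a (((g ^ 2) ^ m) a) := by
          intro m
          induction m with
          | zero => exact Rl.refl _
          | succ m ih =>
            rw [pow_succ', Perm.mul_apply]
            exact e3.trans (ih.conj (pow_mem hg' 2))
        exact hn (hm ▸ e4 m)
      have := choose_dvd_relIndex (cls_disj hab) (key hab hc hm3)
        (key (fun h => hab h.symm) hc.symm (hc ▸ hm3)) (by omega)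
      rw [hc] at this
      exact fun h => hQ.idx (h.trans this)
  refine ⟨h4, fun c hac hbc => ?_⟩
  have := res_three r3 hab hac hbc
  omega

/-- The three kinds of proper Hall subgroups. -/
def Ty (π : Set ℕ) (n m : ℕ) : Prop :=
  (n.Prime ∧ m + 1 = n ∧ ∀ r : ℕ, r.Prime → r ≤ n → (r ∈ π ↔ r < n)) ∨
    ((n = 7 ∨ n = 8) ∧ m = 4 ∧ ∀ r : ℕ, r.Prime → r ≤ n → (r ∈ π ↔ (r = 2 ∨ r = 3)))

theorem prime_le_four {r : ℕ} (hr : r.Prime) : r ≤ 4 ↔ (r = 2 ∨ r = 3) := by
  have := hr.two_le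
  have h4 : r ≠ 4 := by rintro rfl; exact absurd hr (by decide)
  omega

theorem HallA.classify (hH : HallA π H)
    (hh : ∃ r s : ℕ, r.Prime ∧ s.Prime ∧ r ≠ s ∧ r ∈ π ∧ s ∈ π ∧ r ≤ Fintype.card α ∧
      s ≤ Fintype.card α)
    (hns : ∃ r : ℕ, r.Prime ∧ r ≤ Fintype.card α ∧ r ∉ π) :
    ∃ B : Finset α, (∀ g ∈ H, (∀ x, g x ∈ B ↔ x ∈ B) ∨ (∀ x, g x ∈ B ↔ x ∉ B)) ∧
      Ty π (Fintype.card α) B.card := by
  obtain ⟨p, q, hp, hq, hpq, hpπ, hqπ, hqn⟩ : ∃ p q : ℕ, p.Prime ∧ q.Prime ∧ p < q ∧ p ∈ π ∧ q ∈ π ∧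
      q ≤ Fintype.card α := by
    obtain ⟨r, s, hr, hs, hne, h1, h2, h3, h4⟩ := hh
    rcases lt_or_gt_of_ne hne with h | h
    · exact ⟨r, s, hr, hs, h, h1, h2, h4⟩
    · exact ⟨s, r, hs, hr, h, h2, h1, h3⟩
  have h2 := hH.two_mem hp hq hpq hpπ hqπ hqn
  have hp2 := hp.two_le
  have h3 := hH.three_mem h2 hq (by omega) hqπ hqn
  have r4 := hH.res_four h2 h3
  haveI : Nonempty α := Fintype.card_pos_iff.1 (by omega)
  obtain ⟨a, -, ha⟩ := Finset.exists_max_image Finset.univ (fun x => (cls H x).card)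
    Finset.univ_nonempty
  simp only [Finset.mem_univ, true_imp_iff] at ha
  have hM3 : 3 ≤ (cls H a).card := by
    obtain ⟨x, hx⟩ := hH.le_cls h3 Nat.prime_three (by norm_num) h3 (by omega)
    exact hx.trans (ha x)
  have hπ : ∀ r : ℕ, r.Prime → r ≤ Fintype.card α → (r ∈ π ↔ r ≤ (cls H a).card) := by
    refine fun r hr hrn => ⟨fun h => ?_, hH.mem_of_le_cls h2 hr⟩
    by_cases hr2 : r = 2
    · omega
    · obtain ⟨x, hx⟩ := hH.le_cls h3 hr hr2 h hrn
      exact hx.trans (ha x)
  have hMn : (cls H a).card < Fintype.card α := by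
    obtain ⟨r, hr, hrn, hrπ⟩ := hns
    have := (hπ r hr hrn).not.1 hrπ
    omega
  have hinv : ∀ {B : Finset α}, Inv H B → ∀ g ∈ H, ∀ x, g x ∈ B ↔ x ∈ B := fun hB g hg x =>
    ⟨fun h => by_contra fun h' => hB.not_mem hg h' h, hB g hg x⟩
  by_cases hk : ∃ b, ¬ Rl H a b ∧ (cls H b).card = (cls H a).card
  · obtain ⟨b, hab, hb⟩ := hk
    obtain ⟨h4, hoth⟩ := hH.two_cls h2 h3 hab hb hM3
    have hoth3 : ∀ c, ¬ Rl H a c → ¬ Rl H b c → (cls H c).card = 3 := fun c h1 h2 => by
      have := hoth c h1 h2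
      have := ha c
      have := card_cls_pos (H := H) c
      omega
    have hsz4 : sz H 4 = cls H a ∪ cls H b := by
      ext x
      rw [mem_sz, Finset.mem_union, mem_cls, mem_cls]
      constructor
      · intro h
        by_contra h'
        push Not at h'
        have := hoth3 x h'.1 h'.2
        omega
      · rintro (h | h)
        · rw [← cls_eq h, h4]
        · rw [← cls_eq h, hb, h4]
    have hall : ∀ x, Rl H a x ∨ Rl H b x := by
      intro c
      by_contra h'
      push Not at h'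
      have hc3 := hoth3 c h'.1 h'.2
      have hsz3 : sz H 3 = cls H c := by
        ext x
        rw [mem_sz, mem_cls]
        refine ⟨fun h => ?_, fun h => by rw [← cls_eq h, hc3]⟩
        by_contra h''
        have := res_two r4 h''
        omega
      have := choose_dvd_relIndex (B := sz H 4) (B' := sz H 3) (Finset.disjoint_left.2 fun x h1 h2 => by
        rw [mem_sz] at h1 h2; omega) (inv_sz 4) (inv_sz 3) (by
          rw [hsz4, Finset.card_union_of_disjoint (cls_disj hab)]; omega)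
      rw [hsz4, hsz3, Finset.card_union_of_disjoint (cls_disj hab), hb, h4, hc3] at this
      exact hH.idx 3 Nat.prime_three h3 (Dvd.dvd.trans (by decide +kernel) this)
    have hn : Fintype.card α = 8 := by
      have : cls H a ∪ cls H b = Finset.univ := by
        ext x; simpa [mem_cls] using hall x
      rw [← Finset.card_univ, ← this, Finset.card_union_of_disjoint (cls_disj hab), hb, h4]
    refine ⟨cls H a, fun g hg => ?_, Or.inr ⟨Or.inr hn, h4, fun r hr hrn => by
      rw [hπ r hr hrn, h4, prime_le_four hr]⟩⟩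
    simp only [mem_cls]
    have hg1 : ∀ {x y}, Rl H (g x) (g y) → Rl H x y := fun h => by
      simpa using h.conj (inv_mem hg)
    rcases hall (g a) with h | h
    · exact Or.inl fun x => ⟨fun h' => hg1 (h.symm.trans h'), fun h' => h.trans (h'.conj hg)⟩
    · refine Or.inr fun x => ⟨fun h' h'' => hab (h'.trans (h.trans (h''.conj hg)).symm), fun h' => ?_⟩
      exact (hall (g x)).resolve_right fun h'' => h' (hg1 (h.symm.trans h''))
  · push Not at hk
    have hB : Inv H (cls H a) := fun g hg x hx => by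
      rw [mem_cls] at *
      have : Rl H a (g a) := by_contra fun h => hk _ h (card_cls_conj hg a)
      exact this.trans (hx.conj hg)
    refine ⟨cls H a, fun g hg => Or.inl (hinv hB g hg), ?_⟩
    obtain ⟨b, hb, hbmax⟩ := Finset.exists_max_image (cls H a)ᶜ (fun x => (cls H x).card)
      (Finset.card_pos.1 (by rw [Finset.card_compl]; omega))
    simp only [Finset.mem_compl, mem_cls] at hb hbmax
    have hlt : (cls H b).card < (cls H a).card := lt_of_le_of_ne (ha b) (hk b hb)
    have hdisj : Disjoint (cls H a) (sz H (cls H b).card) := Finset.disjoint_left.2 fun x h1 h2 => by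
      rw [mem_sz, ← cls_eq (mem_cls.1 h1)] at h2; omega
    have hch := choose_dvd_relIndex hdisj hB (inv_sz _) (by omega)
    have hnt : ∀ q : ℕ, q.Prime → q ≤ (cls H a).card → ¬ q ∣ ((cls H a).card +
        (sz H (cls H b).card).card).choose (sz H (cls H b).card).card := fun q hq hqM h =>
      hH.idx q hq (hH.mem_of_le_cls h2 hq hqM) (h.trans hch)
    have hpos : 1 ≤ (sz H (cls H b).card).card := Finset.card_pos.2 ⟨b, mem_sz.2 rfl⟩
    rcases card_cls_cases (H := H) b with hb1 | hb3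
    · rw [hb1] at hnt hpos hdisj
      have h1 := hH.sz_one h3
      have hun : cls H a ∪ sz H 1 = Finset.univ := by
        ext x
        simp only [Finset.mem_union, mem_cls, mem_sz, Finset.mem_univ, iff_true]
        by_cases h : Rl H a x
        · exact Or.inl h
        · have := hbmax x h
          have := card_cls_pos (H := H) x
          omega
      have hn := congrArg Finset.card hun
      rw [Finset.card_union_of_disjoint hdisj, Finset.card_univ] at hn
      rcases nt1 hM3 hpos (by omega) hnt with ⟨e1, e2⟩ | ⟨-, e2⟩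
      · refine Or.inl ⟨by rw [← hn, e1]; exact e2, by omega, fun r hr hrn => ?_⟩
        rw [hπ r hr hrn]; omega
      · omega
    · have hszb : sz H (cls H b).card = cls H b := by
        ext x
        rw [mem_sz, mem_cls]
        refine ⟨fun h => ?_, fun h => by rw [← cls_eq h]⟩
        by_contra h'
        obtain ⟨h4, -⟩ := hH.two_cls h2 h3 h' h hb3
        have h5 := hH.mem_of_le_cls h2 (a := a) Nat.prime_five (by omega)
        have := res_two (hH.res_odd h3 Nat.prime_five (by norm_num) h5) h'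
        omega
      rw [hszb] at hnt
      rcases nt1 hM3 (by omega) hlt hnt with ⟨e1, -⟩ | ⟨e1, e2⟩
      · omega
      have hun : cls H a ∪ cls H b = Finset.univ := by
        ext x
        simp only [Finset.mem_union, mem_cls, Finset.mem_univ, iff_true]
        by_contra h
        push Not at h
        have := hbmax x h.1
        have := card_cls_pos (H := H) x
        have := res_two r4 h.2
        omega
      have hn := congrArg Finset.card hun
      rw [Finset.card_union_of_disjoint (cls_disj hb), Finset.card_univ] at hn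
      exact Or.inr ⟨Or.inl (by omega), e1, fun r hr hrn => by
        rw [hπ r hr hrn, e1, prime_le_four hr]⟩

end Cfsg.Agent.Lib.HallSym
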