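import Cfsg.Agent.Lib.Hall.Sym2

set_option autoImplicit false
set_option linter.unusedSectionVars false

namespace Cfsg.Agent.Lib.HallSym

open Cfsg Equiv Equiv.Perm

variable {α : Type*} [Fintype α] [DecidableEq α] {π : Set ℕ}

/-- the stabiliser of the partition `{B, Bᶜ}` -/
def W (B : Finset α) : Subgroup (Perm α) where
  carrier := {g | (∀ x, g x ∈ B ↔ x ∈ B) ∨ (∀ x, g x ∈ B ↔ x ∉ B)}
  one_mem' := Or.inl fun _ => Iff.rfl
  mul_mem' := by
    rintro g g' (h | h) (h' | h')
    · exact Or.inl fun x => by rw [Perm.mul_apply, h, h']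
    · exact Or.inr fun x => by rw [Perm.mul_apply, h, h']
    · exact Or.inr fun x => by rw [Perm.mul_apply, h, h']
    · exact Or.inl fun x => by rw [Perm.mul_apply, h, h', not_not]
  inv_mem' := by
    rintro g (h | h)
    · exact Or.inl fun x => by rw [← h (g⁻¹ x)]; simp
    · refine Or.inr fun x => ?_
      have := h (g⁻¹ x)
      simp only [Perm.coe_inv, apply_symm_apply] at this ⊢
      rw [this, not_not]

theorem mem_col_compl {B : Finset α} {g : Perm α} :
    g ∈ colStab (col B Bᶜ) ↔ ∀ x, g x ∈ B ↔ x ∈ B := by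
  constructor
  · intro h x
    have := congrFun h x
    simp only [Function.comp_apply, col, Finset.mem_compl] at this
    split_ifs at this <;> simp_all
  · intro h
    funext x
    simp only [Function.comp_apply, col, Finset.mem_compl, h]

theorem exists_map_of_card_eq {B B' : Finset α} (h : B.card = B'.card) :
    ∃ g : Perm α, ∀ x, g x ∈ B' ↔ x ∈ B := by
  classical
  have e : {x // x ∈ B} ≃ {x // x ∈ B'} := Finset.equivOfCardEq h
  refine ⟨e.extendSubtype, fun x => ⟨fun hx => ?_, e.extendSubtype_mem x⟩⟩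
  by_contra h'
  exact e.extendSubtype_not_mem x h' hx

theorem relIndex_W (B : Finset α) : (colStab (col B Bᶜ)).relIndex (W B) ∣ 2 := by
  by_cases h : ∃ s : Perm α, ∀ x, s x ∈ B ↔ x ∉ B
  · obtain ⟨s, hs⟩ := h
    by_cases hB : ∀ g ∈ W B, g ∈ colStab (col B Bᶜ)
    · rw [Subgroup.relIndex_eq_one.2 hB]; exact one_dvd _
    have hne : Nonempty α := by
      by_contra h
      exact hB fun g _ => mem_col_compl.2 fun x => absurd ⟨x⟩ h
    obtain ⟨x0⟩ := hne
    rw [Subgroup.relIndex, Subgroup.index_eq_two_iff.2 ⟨⟨s, Or.inr hs⟩, fun b => ?_⟩]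
    simp only [Subgroup.mem_subgroupOf, mem_col_compl, Subgroup.coe_mul, Perm.mul_apply]
    rcases b.2 with h | h
    · refine Or.inr ⟨h, fun h' => ?_⟩
      have := h' x0
      rw [h, hs] at this
      tauto
    · refine Or.inl ⟨fun x => by rw [h, hs, not_not], fun h' => ?_⟩
      have := h' x0
      rw [h] at this
      tauto
  · rw [Subgroup.relIndex_eq_one.2 fun g (hg : g ∈ W B) =>
      mem_col_compl.2 (Or.resolve_right hg fun h' => h ⟨g, h'⟩)]
    exact one_dvd _

theorem col_le_W (B : Finset α) : colStab (col B Bᶜ) ≤ W B := fun _ hg => Or.inl (mem_col_compl.1 hg)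

theorem index_col_compl (B : Finset α) :
    (colStab (col B Bᶜ)).index = (Fintype.card α).choose (Fintype.card α - B.card) := by
  rw [index_col disjoint_compl_right, Finset.card_add_card_compl, Nat.choose_self, one_mul,
    Finset.card_compl]

theorem prime_dvd_W {B : Finset α} {r : ℕ} (hr : r.Prime) (h : r ∣ Nat.card (W B)) :
    r = 2 ∨ r ≤ B.card ∨ r ≤ Fintype.card α - B.card := by
  have h1 := Subgroup.card_mul_index ((colStab (col B Bᶜ)).subgroupOf (W B))
  rw [Nat.card_congr (Subgroup.subgroupOfEquivOfLe (col_le_W B)).toEquiv,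
    card_col disjoint_compl_right, Finset.card_add_card_compl, Nat.sub_self, Nat.factorial_zero,
    mul_one, Finset.card_compl] at h1
  rw [← h1] at h
  rcases (Nat.Prime.dvd_mul hr).1 h with h | h
  · rcases (Nat.Prime.dvd_mul hr).1 h with h | h
    · exact Or.inr (Or.inl (hr.dvd_factorial.1 h))
    · exact Or.inr (Or.inr (hr.dvd_factorial.1 h))
  · exact Or.inl ((Nat.prime_dvd_prime_iff_eq hr Nat.prime_two).1 (h.trans (relIndex_W B)))

theorem Ty.two_le {n m : ℕ} (h : Ty π n m) (hn : 3 ≤ n) : 2 ≤ m := by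
  rcases h with ⟨-, h, -⟩ | ⟨-, h, -⟩ <;> omega

theorem hall_W {B : Finset α} (h : Ty π (Fintype.card α) B.card) (hn : 3 ≤ Fintype.card α) :
    IsPiHall π (W B) := by
  have hidx := Subgroup.relIndex_mul_index (col_le_W B)
  rw [index_col_compl] at hidx
  have hdvd : (W B).index ∣ _ := Dvd.intro_left _ hidx
  constructor
  · intro r hr hd
    have := prime_dvd_W hr hd
    rcases h with ⟨h1, h2, h3⟩ | ⟨h1, h2, h3⟩
    · have := hr.two_le
      exact (h3 r hr (by omega)).2 (by omega)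
    · exact (h3 r hr (by omega)).2 ((prime_le_four hr).1 (by omega))
  · intro r hr hπ hd
    rcases h with ⟨h1, h2, h3⟩ | ⟨h1 | h1, h2, h3⟩
    · rw [show Fintype.card α - B.card = 1 by omega, Nat.choose_one_right] at hdvd
      have := (Nat.prime_dvd_prime_iff_eq hr h1).1 (hd.trans hdvd)
      have := (h3 r hr (by omega)).1 hπ
      omega
    · rw [h1, h2] at hdvd
      have h4 : r ∣ 35 := hd.trans hdvd
      have h5 : r ≤ 7 := by
        rcases (Nat.Prime.dvd_mul hr (m := 5) (n := 7)).1 h4 with h | h <;>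
          have := Nat.le_of_dvd (by norm_num) h <;> omega
      rcases (h3 r hr (by omega)).1 hπ with rfl | rfl <;> omega
    · obtain ⟨s, hs⟩ := exists_map_of_card_eq (B := Bᶜ) (B' := B) (by rw [Finset.card_compl]; omega)
      have hne : (colStab (col B Bᶜ)).relIndex (W B) ≠ 1 := fun h => by
        have := mem_col_compl.1 (Subgroup.relIndex_eq_one.1 h
          (Or.inr fun x => by rw [hs, Finset.mem_compl] : s ∈ W B))
        obtain ⟨x⟩ : Nonempty α := Fintype.card_pos_iff.1 (by omega)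
        have h1 := this x
        rw [hs, Finset.mem_compl] at h1
        tauto
      rw [((Nat.dvd_prime Nat.prime_two).1 (relIndex_W B)).resolve_left hne, h1, h2] at hidx
      have h35 : (W B).index = 35 := by
        have : Nat.choose 8 (8 - 4) = 70 := by decide +kernel
        omega
      have h4 : r ∣ 35 := h35 ▸ hd
      have h5 : r ≤ 7 := by
        rcases (Nat.Prime.dvd_mul hr (m := 5) (n := 7)).1 h4 with h | h <;>
          have := Nat.le_of_dvd (by norm_num) h <;> omega
      rcases (h3 r hr (by omega)).1 hπ with rfl | rfl <;> omega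

theorem W_conj {B B' : Finset α} (h : B.card = B'.card) (h2 : 2 ≤ B.card) :
    ∃ g ∈ alternatingGroup α, ∀ x, x ∈ W B' ↔ g⁻¹ * x * g ∈ W B := by
  obtain ⟨g, hg, hg'⟩ : ∃ g ∈ alternatingGroup α, ∀ x, g x ∈ B' ↔ x ∈ B := by
    obtain ⟨g, hg⟩ := exists_map_of_card_eq h
    rcases Int.units_eq_one_or (Perm.sign g) with h1 | h1
    · exact ⟨g, h1, hg⟩
    · obtain ⟨a, ha, b, hb, hab⟩ := Finset.one_lt_card.1 h2
      refine ⟨g * swap a b, ?_, fun x => ?_⟩
      · rw [Perm.mem_alternatingGroup, map_mul, h1, Perm.sign_swap hab]; rfl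
      · rw [Perm.mul_apply, hg, swap_apply_def]
        split_ifs <;> simp_all
  have key : ∀ y, g⁻¹ y ∈ B ↔ y ∈ B' := fun y => by rw [← hg']; simp
  refine ⟨g, hg, fun x => ?_⟩
  change (_ ∨ _) ↔ (_ ∨ _)
  simp only [Perm.mul_apply, key]
  refine or_congr ⟨fun h y => by rw [h, hg'], fun h y => ?_⟩ ⟨fun h y => by rw [h, hg'], fun h y => ?_⟩
  · have := h (g⁻¹ y)
    rw [key] at this
    simpa using this
  · have := h (g⁻¹ y)
    rw [key] at this
    simpa using this

theorem Ty.unique {n m m' : ℕ} (h : Ty π n m) (h' : Ty π n m') : m = m' := by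
  have h8 : ¬ Nat.Prime 8 := by decide
  rcases h with ⟨h1, h2, h3⟩ | ⟨h1, h2, h3⟩ <;> rcases h' with ⟨h1', h2', h3'⟩ | ⟨h1', h2', h3'⟩
  · omega
  · rcases h1' with rfl | rfl
    · have := (h3' 5 Nat.prime_five (by norm_num)).1 ((h3 5 Nat.prime_five (by norm_num)).2 (by norm_num))
      omega
    · exact absurd h1 h8
  · rcases h1 with rfl | rfl
    · have := (h3 5 Nat.prime_five (by norm_num)).1 ((h3' 5 Nat.prime_five (by norm_num)).2 (by norm_num))
      omega
    · exact absurd h1' h8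
  · omega

theorem hallA_of_hall {H : Subgroup (Perm α)} (h : IsPiHall π H) : HallA π H :=
  ⟨h.1, (hall_subgroupOf h (alternatingGroup α)).2⟩

theorem hallA_of_hall_alt {M : Subgroup (alternatingGroup α)} (h : IsPiHall π M) :
    HallA π (M.map (alternatingGroup α).subtype) := by
  refine ⟨fun p hp hd => h.1 p hp ?_, fun p hp hπ hd => h.2 p hp hπ ?_⟩
  · rwa [Subgroup.card_map_of_injective (alternatingGroup α).subtype_injective] at hd
  · rwa [Subgroup.relIndex, Subgroup.subgroupOf, Subgroup.comap_map_eq_self_of_injective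
      (alternatingGroup α).subtype_injective] at hd

/-- the proper case -/
def Proper (π : Set ℕ) (n : ℕ) : Prop :=
  (∃ r s : ℕ, r.Prime ∧ s.Prime ∧ r ≠ s ∧ r ∈ π ∧ s ∈ π ∧ r ≤ n ∧ s ≤ n) ∧
    ∃ r : ℕ, r.Prime ∧ r ≤ n ∧ r ∉ π

theorem Proper.three_le {n : ℕ} (h : Proper π n) : 3 ≤ n := by
  obtain ⟨⟨r, s, hr, hs, hne, -, -, h1, h2⟩, -⟩ := h
  have := hr.two_le
  have := hs.two_le
  omega

theorem hall_sym_eq (hP : Proper π (Fintype.card α)) {H : Subgroup (Perm α)} (h : IsPiHall π H) :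
    ∃ B : Finset α, Ty π (Fintype.card α) B.card ∧ H = W B := by
  obtain ⟨B, h1, h2⟩ := (hallA_of_hall h).classify hP.1 hP.2
  exact ⟨B, h2, eq_of_hall_le h (hall_W h2 hP.three_le).1 h1⟩

theorem hall_alt_eq (hP : Proper π (Fintype.card α)) {M : Subgroup (alternatingGroup α)}
    (h : IsPiHall π M) :
    ∃ B : Finset α, Ty π (Fintype.card α) B.card ∧ M = (W B).subgroupOf (alternatingGroup α) := by
  obtain ⟨B, h1, h2⟩ := (hallA_of_hall_alt h).classify hP.1 hP.2
  exact ⟨B, h2, eq_of_hall_le h (hall_subgroupOf (hall_W h2 hP.three_le) _).1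
    fun g hg => h1 g ⟨g, hg, rfl⟩⟩

theorem dvd_alt_le {r : ℕ} (hr : r.Prime) (h : r ∣ Nat.card (alternatingGroup α)) :
    r ≤ Fintype.card α := by
  have := h.trans (Subgroup.card_subgroup_dvd_card _)
  rwa [Nat.card_eq_fintype_card, Fintype.card_perm, hr.dvd_factorial] at this

theorem dvd_sym_le {r : ℕ} (hr : r.Prime) (h : r ∣ Nat.card (Perm α)) : r ≤ Fintype.card α := by
  rwa [Nat.card_eq_fintype_card, Fintype.card_perm, hr.dvd_factorial] at h

theorem D_of_not_proper (h : ¬ Proper π (Fintype.card α)) :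
    IsDPiGroup π (Perm α) ∧ IsDPiGroup π (alternatingGroup α) := by
  rw [Proper, not_and_or] at h
  rcases h with h | h
  · push Not at h
    exact ⟨D_of_one fun r s hr hs h1 h2 h3 h4 => by_contra fun hne =>
        absurd (dvd_sym_le hs h4) (not_le.2 (h r s hr hs hne h1 h2 (dvd_sym_le hr h3))),
      D_of_one fun r s hr hs h1 h2 h3 h4 => by_contra fun hne =>
        absurd (dvd_alt_le hs h4) (not_le.2 (h r s hr hs hne h1 h2 (dvd_alt_le hr h3)))⟩
  · push Not at h
    exact ⟨D_of_all fun r hr hd => h r hr (dvd_sym_le hr hd),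
      D_of_all fun r hr hd => h r hr (dvd_alt_le hr hd)⟩

theorem C_sym (h : IsEPiGroup π (Perm α)) : IsCPiGroup π (Perm α) := by
  by_cases hP : Proper π (Fintype.card α)
  · refine ⟨h, fun H K hH hK => ?_⟩
    obtain ⟨B, h1, rfl⟩ := hall_sym_eq hP hH
    obtain ⟨B', h2, rfl⟩ := hall_sym_eq hP hK
    obtain ⟨g, -, hg⟩ := W_conj (h1.unique h2) (h1.two_le hP.three_le)
    exact ⟨g, Subgroup.ext fun x => by rw [mem_map_conj, hg]⟩
  · exact C_of_D (D_of_not_proper hP).1

theorem C_alt (h : IsEPiGroup π (alternatingGroup α)) : IsCPiGroup π (alternatingGroup α) := by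
  by_cases hP : Proper π (Fintype.card α)
  · refine ⟨h, fun H K hH hK => ?_⟩
    obtain ⟨B, h1, rfl⟩ := hall_alt_eq hP hH
    obtain ⟨B', h2, rfl⟩ := hall_alt_eq hP hK
    obtain ⟨g, hgA, hg⟩ := W_conj (h1.unique h2) (h1.two_le hP.three_le)
    exact ⟨⟨g, hgA⟩, Subgroup.ext fun x => by
      rw [mem_map_conj, Subgroup.mem_subgroupOf, Subgroup.mem_subgroupOf, hg]; rfl⟩
  · exact C_of_D (D_of_not_proper hP).2

theorem E_sym_iff : IsEPiGroup π (Perm α) ↔ IsEPiGroup π (alternatingGroup α) := by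
  refine ⟨fun ⟨H, hH⟩ => ⟨_, hall_subgroupOf hH _⟩, fun ⟨M, hM⟩ => ?_⟩
  by_cases hP : Proper π (Fintype.card α)
  · obtain ⟨B, h1, -⟩ := hall_alt_eq hP hM
    exact ⟨_, hall_W h1 hP.three_le⟩
  · exact (C_of_D (D_of_not_proper hP).1).1

end Cfsg.Agent.Lib.HallSym
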